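import Cfsg.Agent.H491.SubgroupCount

/-!
# Counting normal subgroups of given order in a finite `p`-group
-/

set_option autoImplicit false

namespace Cfsg.Agent.H491.NormalSubgroupCount

open scoped Pointwise

/-- In a group of order `p ^ m` the number of normal subgroups of order `p ^ s` (`s ≤ m`) is
congruent to `1` modulo `p`. -/
theorem card_normal_modEq_one {G : Type*} [Group G] [Finite G] (p m s : ℕ) (hp : p.Prime)
    (hG : Nat.card G = p ^ m) (hs : s ≤ m) :
    Nat.card {H : Subgroup G // H.Normal ∧ Nat.card H = p ^ s} ≡ 1 [MOD p] := by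
  have : Fact p.Prime := ⟨hp⟩
  have h0 : Nat.card {H : Subgroup G // Nat.card H = p ^ s} ≡ 1 [MOD p] :=
    SubgroupCount.card_subgroups_modEq_one p s hp (by rw [hG]; exact pow_dvd_pow p hs)
  have hcard : ∀ (g : ConjAct G) (H : Subgroup G), Nat.card (g • H : Subgroup G) = Nat.card H := by
    intro g H
    exact Nat.card_congr (Subgroup.equivSMul g H).toEquiv.symm
  let act : MulAction (ConjAct G) {H : Subgroup G // Nat.card H = p ^ s} :=
    { smul := fun g H => ⟨g • H.1, (hcard g H.1).trans H.2⟩
      one_smul := fun H => Subtype.ext (one_smul _ H.1)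
      mul_smul := fun a b H => Subtype.ext (mul_smul a b H.1) }
  have hP : IsPGroup p (ConjAct G) := IsPGroup.of_card (n := m) hG
  have h1 := hP.card_modEq_card_fixedPoints {H : Subgroup G // Nat.card H = p ^ s}
  have h2 : Nat.card (MulAction.fixedPoints (ConjAct G) {H : Subgroup G // Nat.card H = p ^ s})
      = Nat.card {H : Subgroup G // H.Normal ∧ Nat.card H = p ^ s} := by
    refine Nat.card_congr
      { toFun := fun H => ⟨H.1.1, ?_, H.1.2⟩
        invFun := fun H => ⟨⟨H.1, H.2.2⟩, ?_⟩
        left_inv := fun H => rfl
        right_inv := fun H => rfl }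
    · constructor
      intro n hn g
      have h3 : ConjAct.toConjAct g • H.1.1 = H.1.1 := congrArg Subtype.val (H.2 _)
      rw [← h3]
      have := Subgroup.smul_mem_pointwise_smul n (ConjAct.toConjAct g) H.1.1 hn
      rw [ConjAct.toConjAct_smul] at this
      exact this
    · intro g
      apply Subtype.ext
      show g • H.1 = H.1
      have := H.2.1
      exact Subgroup.Normal.conjAct this g
  rw [h2] at h1
  exact h1.symm.trans h0

end Cfsg.Agent.H491.NormalSubgroupCount
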